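import Cfsg.Agent.Char.Basic
import Mathlib.Analysis.InnerProductSpace.PiL2
import Mathlib.Analysis.SpecificLimits.Basic
import Mathlib.Analysis.SpecialFunctions.Complex.Arg

/-!
Frobenius' lemma on finite unitary groups and the resulting bound of Blichfeldt.
-/

set_option autoImplicit false
set_option linter.all false
set_option maxHeartbeats 200000

namespace Cfsg.Agent.Jordan

open scoped InnerProductSpace ComplexConjugate
open Module

universe u v

section

variable {G : Type u} [Group G] {U : Type v} [NormedAddCommGroup U] [InnerProductSpace ℂ U]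

theorem norm_sum_sq_of_orth {ι : Type*} (s : Finset ι) (f : ι → U)
    (h : ∀ i ∈ s, ∀ j ∈ s, i ≠ j → ⟪f i, f j⟫_ℂ = 0) :
    ‖∑ i ∈ s, f i‖ ^ 2 = ∑ i ∈ s, ‖f i‖ ^ 2 := by
  classical
  induction s using Finset.induction_on with
  | empty => simp
  | @insert a s ha ih =>
    rw [Finset.sum_insert ha, Finset.sum_insert ha,
      ← ih (fun i hi j hj => h i (Finset.mem_insert_of_mem hi) j (Finset.mem_insert_of_mem hj))]
    have h0 : ⟪f a, ∑ i ∈ s, f i⟫_ℂ = 0 := by
      rw [inner_sum]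
      exact Finset.sum_eq_zero fun i hi =>
        h a (Finset.mem_insert_self a s) i (Finset.mem_insert_of_mem hi) (fun e => ha (e ▸ hi))
    have := norm_add_sq_eq_norm_sq_add_norm_sq_of_inner_eq_zero _ _ h0
    simpa [sq] using this

variable (Φ : Representation ℂ G U)

/-- The operator of `g` is closer than `1/2` to some scalar. -/
def Near (g : G) : Prop :=
  ∃ (c : ℂ) (r : ℝ), 0 ≤ r ∧ r < 1 / 2 ∧ ∀ v, ‖Φ g v - c • v‖ ≤ r * ‖v‖

variable {Φ}
variable (hiso : ∀ g v, ‖Φ g v‖ = ‖v‖)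
include hiso

theorem inner_map (g : G) (u v : U) : ⟪Φ g u, Φ g v⟫_ℂ = ⟪u, v⟫_ℂ :=
  (LinearMap.norm_map_iff_inner_map_map (Φ g)).1 (hiso g) u v

theorem norm_eigen {g : G} {v : U} {μ : ℂ} (hv : v ≠ 0) (h : Φ g v = μ • v) : ‖μ‖ = 1 := by
  have h1 := hiso g v
  rw [h, norm_smul] at h1
  exact (mul_eq_right₀ (norm_ne_zero_iff.2 hv)).1 h1

theorem inner_eq_zero_of_eigen {g : G} {u v : U} {l m : ℂ} (hl : Φ g u = l • u) (hm : Φ g v = m • v)
    (hne : l ≠ m) : ⟪u, v⟫_ℂ = 0 := by
  by_cases hu : u = 0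
  · simp [hu]
  have h1 := inner_map hiso g u v
  rw [hl, hm, inner_smul_left, inner_smul_right, ← mul_assoc] at h1
  by_contra h0
  have h2 : conj l * m = 1 := (mul_eq_right₀ h0).1 h1
  have h3 : conj l * l = 1 := by
    rw [Complex.conj_mul', norm_eigen hiso hu hl]; simp
  apply hne
  exact mul_left_cancel₀ (left_ne_zero_of_mul_eq_one h2) (h3.trans h2.symm)

theorem near_conj {g : G} (h : Near Φ g) (x : G) : Near Φ (x * g * x⁻¹) := by
  obtain ⟨c, r, hr0, hr, hb⟩ := h
  refine ⟨c, r, hr0, hr, fun v => ?_⟩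
  have hv : v = Φ x (Φ x⁻¹ v) := by
    rw [← Module.End.mul_apply, ← map_mul, mul_inv_cancel, map_one, Module.End.one_apply]
  have : Φ (x * g * x⁻¹) v - c • v = Φ x (Φ g (Φ x⁻¹ v) - c • Φ x⁻¹ v) := by
    rw [map_sub, map_smul, ← hv]
    simp [map_mul]
  rw [this, hiso]
  exact (hb _).trans_eq (by rw [hiso])

theorem commutator_dist {a b : G} {c d : ℂ} {r s : ℝ} (hr : 0 ≤ r) (hs : 0 ≤ s)
    (ha : ∀ v, ‖Φ a v - c • v‖ ≤ r * ‖v‖) (hb : ∀ v, ‖Φ b v - d • v‖ ≤ s * ‖v‖) (v : U) :
    ‖Φ (a * b * a⁻¹ * b⁻¹) v - v‖ ≤ 2 * r * s * ‖v‖ := by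
  set w := Φ (a⁻¹ * b⁻¹) v with hw
  have h1 : Φ (a * b * a⁻¹ * b⁻¹) v = Φ a (Φ b w) := by
    rw [hw, ← Module.End.mul_apply, ← Module.End.mul_apply, ← map_mul, ← map_mul]
    simp [mul_assoc]
  have h2 : v = Φ b (Φ a w) := by
    rw [hw, ← Module.End.mul_apply, ← Module.End.mul_apply, ← map_mul, ← map_mul]
    simp [mul_assoc]
  have hn : ‖w‖ = ‖v‖ := hiso _ _
  have h3 : Φ a (Φ b w) - Φ b (Φ a w) =
      (Φ a (Φ b w - d • w) - c • (Φ b w - d • w)) -
      (Φ b (Φ a w - c • w) - d • (Φ a w - c • w)) := by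
    simp only [map_sub, map_smul, smul_sub, smul_smul, mul_comm d c]
    abel
  rw [h1]
  nth_rewrite 1 [h2]
  rw [h3, ← hn]
  refine (norm_sub_le _ _).trans ?_
  have e1 := (ha (Φ b w - d • w)).trans (mul_le_mul_of_nonneg_left (hb w) hr)
  have e2 := (hb (Φ a w - c • w)).trans (mul_le_mul_of_nonneg_left (ha w) hs)
  linarith

/-- Frobenius' lemma. -/
theorem commute_of_commute_commutator [FiniteDimensional ℂ U] (hinj : Function.Injective Φ)
    {a b : G} (ha : IsOfFinOrder a) {d : ℂ} {s : ℝ} (hs : s < 1)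
    (hb : ∀ v, ‖Φ b v - d • v‖ ≤ s * ‖v‖) (h : Commute a (a * b * a⁻¹ * b⁻¹)) : Commute a b := by
  have hx : Commute a (b * a * b⁻¹) := by
    have h0 : Commute a (a⁻¹ * (a * b * a⁻¹ * b⁻¹)) := ((Commute.refl a).inv_right).mul_right h
    have h1 := h0.inv_right
    simpa [mul_assoc] using h1
  obtain ⟨e, ω, he, hω⟩ := Cfsg.Agent.Char.exists_eigenbasis Φ a ha
  apply hinj
  refine e.ext fun i => ?_
  set l := ω i
  set v := Φ b (e i) with hv
  suffices hav : Φ a v = l • v by
    simp only [map_mul, Module.End.mul_apply, he]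
    rw [← hv, hav, map_smul]
  set y := Φ a v - l • v with hy
  have hxv : Φ (b * a * b⁻¹) v = l • v := by
    rw [hv, ← Module.End.mul_apply, ← map_mul]
    simp only [inv_mul_cancel_right, map_mul, Module.End.mul_apply, he, map_smul]
    rfl
  have hxy : Φ (b * a * b⁻¹) y = l • y := by
    have hc : ∀ z, Φ (b * a * b⁻¹) (Φ a z) = Φ a (Φ (b * a * b⁻¹) z) := fun z => by
      simp only [← Module.End.mul_apply, ← map_mul, hx.eq]
    rw [hy, map_sub, map_smul, hc, hxv, map_smul, smul_sub]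
  set w := Φ b⁻¹ y with hw
  have haw : Φ a w = l • w := by
    have h2 := congrArg (Φ b⁻¹) hxy
    rw [map_smul, ← Module.End.mul_apply, ← map_mul] at h2
    simpa [mul_assoc, map_mul, Module.End.mul_apply, ← hw] using h2
  have hbw : Φ b w = y := by
    rw [hw, ← Module.End.mul_apply, ← map_mul, mul_inv_cancel, map_one, Module.End.one_apply]
  suffices hy0 : y = 0 by exact sub_eq_zero.1 hy0
  by_contra hy0
  have hw0 : w ≠ 0 := fun h0 => hy0 (by rw [← hbw, h0, map_zero])
  have horth : ⟪w, y⟫_ℂ = 0 := by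
    have h1 := inner_map hiso a w v
    rw [haw, inner_smul_left] at h1
    rw [hy, inner_sub_right, inner_smul_right, ← h1, ← mul_assoc, Complex.mul_conj',
      norm_eigen hiso hw0 haw]
    simp
  have h4 : ⟪y, -(d • w)⟫_ℂ = 0 := by
    rw [inner_neg_right, inner_smul_right, inner_eq_zero_symm.1 horth]; simp
  have h5 := norm_add_sq_eq_norm_sq_add_norm_sq_of_inner_eq_zero _ _ h4
  rw [← sub_eq_add_neg] at h5
  have h6 := hb w
  have h7 : ‖y‖ = ‖w‖ := by rw [← hbw, hiso]
  rw [hbw] at h6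
  have hwpos : 0 < ‖w‖ := norm_pos_iff.2 hw0
  have h8 : ‖w‖ ≤ ‖y - d • w‖ := by
    refine le_of_pow_le_pow_left₀ two_ne_zero (norm_nonneg _) ?_
    rw [h7] at h5
    nlinarith [mul_self_nonneg ‖-(d • w)‖]
  have h9 : s * ‖w‖ < 1 * ‖w‖ := mul_lt_mul_of_pos_right hs hwpos
  linarith

theorem commute_of_near [Finite G] [FiniteDimensional ℂ U] (hinj : Function.Injective Φ)
    {a b : G} (ha : Near Φ a) (hb : Near Φ b) : Commute a b := by
  classical
  haveI := Fintype.ofFinite G
  obtain ⟨c, r, hr0, hr, hac⟩ := ha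
  obtain ⟨d, s, hs0, hs, hbd⟩ := hb
  let f : G → G := fun x => a * x * a⁻¹ * x⁻¹
  have hdist : ∀ k : ℕ, ∀ v, ‖Φ (f^[k + 1] b) v - v‖ ≤ (2 * r) ^ (k + 1) * s * ‖v‖ := by
    intro k
    induction k with
    | zero => intro v; simpa [f, mul_assoc] using commutator_dist hiso hr0 hs0 hac hbd v
    | succ k ih =>
      intro v
      rw [Function.iterate_succ_apply']
      refine (commutator_dist hiso (a := a) (b := f^[k + 1] b) (c := c) (d := 1) (r := r)
        (s := (2 * r) ^ (k + 1) * s) hr0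
        (mul_nonneg (pow_nonneg (by linarith) _) hs0) hac ?_ v).trans_eq ?_
      · intro w; simpa using ih w
      · rw [pow_succ (2 * r) (k + 1)]; ring
  have hk : ∀ g : G, ∃ K : ℕ, g ≠ 1 → ¬ ∀ v, ‖Φ g v - v‖ ≤ (2 * r) ^ (K + 1) * s * ‖v‖ := by
    intro g
    by_cases hg : g = 1
    · exact ⟨0, fun h => absurd hg h⟩
    obtain ⟨v, hv⟩ : ∃ v, Φ g v ≠ v := by
      by_contra! hall
      exact hg (hinj (LinearMap.ext fun v => by simp [hall v]))
    have hpos : 0 < ‖Φ g v - v‖ := norm_pos_iff.2 (sub_ne_zero.2 hv)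
    obtain ⟨K, hK⟩ := exists_pow_lt_of_lt_one
      (div_pos hpos (by positivity : (0 : ℝ) < s * ‖v‖ + 1)) (by linarith : 2 * r < 1)
    refine ⟨K, fun _ hall => ?_⟩
    have h1 : (2 * r) ^ (K + 1) ≤ (2 * r) ^ K :=
      pow_le_pow_of_le_one (by linarith) (by linarith) (Nat.le_succ K)
    have hK' := (lt_div_iff₀ (by positivity : (0 : ℝ) < s * ‖v‖ + 1)).1 hK
    have h2 := hall v
    have h3 : (2 * r) ^ (K + 1) * s * ‖v‖ ≤ (2 * r) ^ K * (s * ‖v‖ + 1) := by
      have : 0 ≤ (2 * r) ^ K := pow_nonneg (by linarith) _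
      nlinarith [mul_nonneg hs0 (norm_nonneg v)]
    linarith
  choose K hK using hk
  set N := Finset.univ.sup K
  have hN : f^[N + 1] b = 1 := by
    by_contra hne
    refine hK _ hne fun v => (hdist N v).trans ?_
    have : (2 * r) ^ (N + 1) ≤ (2 * r) ^ (K (f^[N + 1] b) + 1) :=
      pow_le_pow_of_le_one (by linarith) (by linarith)
        (Nat.succ_le_succ (Finset.le_sup (f := K) (Finset.mem_univ _)))
    gcongr
  have hdesc : ∀ j : ℕ, Commute a (f^[j] b) → Commute a b := by
    intro j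
    induction j with
    | zero => intro h; exact h
    | succ j ih =>
      intro h
      apply ih
      rw [Function.iterate_succ_apply'] at h
      cases j with
      | zero => exact commute_of_commute_commutator hiso hinj (isOfFinOrder_of_finite a) (by linarith) hbd h
      | succ j =>
        refine commute_of_commute_commutator hiso hinj (isOfFinOrder_of_finite a) (d := 1) ?_
          (fun v => by simpa using hdist j v) h
        have : (2 * r) ^ (j + 1) ≤ 1 := pow_le_one₀ (by linarith) (by linarith)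
        nlinarith
  exact hdesc (N + 1) (hN ▸ Commute.one_right a)

theorem near_of_eigen [FiniteDimensional ℂ U] {g : G} (s : Finset U)
    (hspan : Submodule.span ℂ (s : Set U) = ⊤) (z : U → ℂ) (hz : ∀ x ∈ s, Φ g x = z x • x)
    (c : ℂ) (hc : ∀ x ∈ s, ‖z x - c‖ < 1 / 2) : Near Φ g := by
  classical
  let R : Finset ℝ := insert 0 (s.image fun x => ‖z x - c‖)
  have hR : R.Nonempty := ⟨0, Finset.mem_insert_self _ _⟩
  refine ⟨c, R.max' hR, R.le_max' 0 (Finset.mem_insert_self _ _), ?_, fun v => ?_⟩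
  · rw [Finset.max'_lt_iff]
    intro y hy
    rcases Finset.mem_insert.1 hy with rfl | hy
    · norm_num
    · obtain ⟨x, hx, rfl⟩ := Finset.mem_image.1 hy
      exact hc x hx
  · set r := R.max' hR
    have hr0 : 0 ≤ r := R.le_max' 0 (Finset.mem_insert_self _ _)
    obtain ⟨q, -, rfl⟩ := Submodule.mem_span_finset.1 (hspan.symm ▸ Submodule.mem_top (x := v))
    let t := s.image z
    let p : ℂ → U := fun l => ∑ x ∈ s.filter (fun x => z x = l), q x • x
    have hp : ∀ l, Φ g (p l) = l • p l := by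
      intro l
      simp only [p, map_sum, Finset.smul_sum, map_smul]
      refine Finset.sum_congr rfl fun x hx => ?_
      obtain ⟨hx', hzx⟩ := Finset.mem_filter.1 hx
      rw [hz x hx', hzx, smul_comm]
    have hv : ∑ x ∈ s, q x • x = ∑ l ∈ t, p l :=
      (Finset.sum_fiberwise_of_maps_to (fun x hx => Finset.mem_image_of_mem z hx) _).symm
    rw [hv, map_sum, Finset.smul_sum, ← Finset.sum_sub_distrib]
    have heq : ∀ l, Φ g (p l) - c • p l = (l - c) • p l := fun l => by rw [hp, sub_smul]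
    simp only [heq]
    have horth : ∀ i ∈ t, ∀ j ∈ t, i ≠ j → ⟪p i, p j⟫_ℂ = 0 :=
      fun i _ j _ hij => inner_eq_zero_of_eigen hiso (hp i) (hp j) hij
    have h1 := norm_sum_sq_of_orth t p horth
    have h2 := norm_sum_sq_of_orth t (fun l => (l - c) • p l) (fun i hi j hj hij => by
      rw [inner_smul_left, inner_smul_right, horth i hi j hj hij]; simp)
    refine le_of_pow_le_pow_left₀ (two_ne_zero) (by positivity) ?_
    rw [h2, mul_pow, h1, Finset.mul_sum]
    refine Finset.sum_le_sum fun l hl => ?_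
    rw [norm_smul, mul_pow]
    obtain ⟨x, hx, rfl⟩ := Finset.mem_image.1 hl
    gcongr
    exact R.le_max' _ (Finset.mem_insert_of_mem (Finset.mem_image_of_mem _ hx))

omit hiso in
theorem exists_common_eigen_spanning {H : Type u} [Group H] [Finite H]
    (hH : ∀ x y : H, Commute x y) (V : Type v) [AddCommGroup V] [Module ℂ V] [FiniteDimensional ℂ V]
    (ρ : Representation ℂ H V) :
    ∃ s : Finset V, s.card ≤ finrank ℂ V ∧ Submodule.span ℂ (s : Set V) = ⊤ ∧
      ∀ x ∈ s, ∀ h, ∃ μ : ℂ, ρ h x = μ • x := by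
  classical
  refine Cfsg.Agent.Char.rep_induction (fun V _ _ _ ρ => ∃ s : Finset V, s.card ≤ finrank ℂ V ∧
      Submodule.span ℂ (s : Set V) = ⊤ ∧ ∀ x ∈ s, ∀ h, ∃ μ : ℂ, ρ h x = μ • x) ?_ ?_ ?_ V ρ
  · intro V _ _ _ ρ hV
    exact ⟨∅, Nat.zero_le _, Subsingleton.elim _ _, fun x hx => absurd hx (Finset.notMem_empty x)⟩
  · intro V _ _ _ ρ hρ
    let b := finBasis ℂ V
    refine ⟨Finset.univ.image b, Finset.card_image_le.trans (by simp),
      by simpa using b.span_eq, fun x _ h => ?_⟩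
    obtain ⟨μ, hμ⟩ := Cfsg.Agent.Char.exists_smul_id_of_commute ρ (ρ h)
      (fun g => by rw [← map_mul, ← map_mul, (hH h g).eq])
    exact ⟨μ, by rw [hμ]; rfl⟩
  · rintro V _ _ _ ρ W W' hc ⟨s, hs, hss, hse⟩ ⟨s', hs', hss', hse'⟩
    refine ⟨s.image Subtype.val ∪ s'.image Subtype.val, ?_, ?_, ?_⟩
    · refine (Finset.card_union_le _ _).trans
        ((add_le_add (Finset.card_image_le.trans hs) (Finset.card_image_le.trans hs')).trans_eq ?_)
      exact Submodule.finrank_add_eq_of_isCompl hc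
    · rw [Finset.coe_union, Submodule.span_union, Finset.coe_image, Finset.coe_image]
      rw [← Submodule.coe_subtype, ← Submodule.coe_subtype, ← Submodule.map_span, ← Submodule.map_span,
        hss, hss', Submodule.map_subtype_top, Submodule.map_subtype_top, hc.sup_eq_top]
    · intro x hx h
      rcases Finset.mem_union.1 hx with hx | hx <;> obtain ⟨y, hy, rfl⟩ := Finset.mem_image.1 hx
      · obtain ⟨μ, hμ⟩ := hse y hy h
        exact ⟨μ, congrArg Subtype.val hμ⟩
      · obtain ⟨μ, hμ⟩ := hse' y hy h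
        exact ⟨μ, congrArg Subtype.val hμ⟩

omit hiso in
/-- The arc (one of twelve) containing a complex number on the unit circle. -/
noncomputable def arcIdx (z : ℂ) : ℤ := ⌈(z.arg + Real.pi) * 6 / Real.pi⌉ - 1

omit hiso in
theorem arcIdx_mem (z : ℂ) : 0 ≤ arcIdx z ∧ arcIdx z < 12 := by
  have h1 := Complex.neg_pi_lt_arg z
  have h2 := Complex.arg_le_pi z
  have hp := Real.pi_pos
  have a : (0 : ℝ) < (z.arg + Real.pi) * 6 / Real.pi := div_pos (by linarith) hp
  have b : (z.arg + Real.pi) * 6 / Real.pi ≤ 12 := by rw [div_le_iff₀ hp]; linarith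
  have c : 0 < ⌈(z.arg + Real.pi) * 6 / Real.pi⌉ := Int.ceil_pos.2 a
  have d : ⌈(z.arg + Real.pi) * 6 / Real.pi⌉ ≤ 12 := Int.ceil_le.2 (by exact_mod_cast b)
  unfold arcIdx
  omega

omit hiso in
theorem arc_close {z w : ℂ} (hz : ‖z‖ = 1) (hw : ‖w‖ = 1) (h : arcIdx z = arcIdx w) :
    ‖conj z * w - (Real.sqrt 3 / 2 : ℝ)‖ < 1 / 2 := by
  have hp := Real.pi_pos
  have hc : ⌈(z.arg + Real.pi) * 6 / Real.pi⌉ = ⌈(w.arg + Real.pi) * 6 / Real.pi⌉ := by
    unfold arcIdx at h; omega
  have habs : |(w.arg + Real.pi) * 6 / Real.pi - (z.arg + Real.pi) * 6 / Real.pi| < 1 := by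
    have a1 := Int.le_ceil ((z.arg + Real.pi) * 6 / Real.pi)
    have a2 := Int.ceil_lt_add_one ((z.arg + Real.pi) * 6 / Real.pi)
    have b1 := Int.le_ceil ((w.arg + Real.pi) * 6 / Real.pi)
    have b2 := Int.ceil_lt_add_one ((w.arg + Real.pi) * 6 / Real.pi)
    rw [hc] at a1 a2
    exact abs_lt.2 ⟨by linarith, by linarith⟩
  have hd : |w.arg - z.arg| < Real.pi / 6 := by
    have : (w.arg + Real.pi) * 6 / Real.pi - (z.arg + Real.pi) * 6 / Real.pi
        = (w.arg - z.arg) * (6 / Real.pi) := by ring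
    rw [this, abs_mul, abs_of_pos (by positivity : (0 : ℝ) < 6 / Real.pi), ← lt_div_iff₀ (by positivity)] at habs
    calc |w.arg - z.arg| < 1 / (6 / Real.pi) := habs
      _ = Real.pi / 6 := by field_simp
  have hz0 : z ≠ 0 := norm_ne_zero_iff.1 (by rw [hz]; exact one_ne_zero)
  have hw0 : w ≠ 0 := norm_ne_zero_iff.1 (by rw [hw]; exact one_ne_zero)
  have hcz : Real.cos z.arg = z.re := by rw [Complex.cos_arg hz0, hz, div_one]
  have hcw : Real.cos w.arg = w.re := by rw [Complex.cos_arg hw0, hw, div_one]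
  have hsz : Real.sin z.arg = z.im := by rw [Complex.sin_arg, hz, div_one]
  have hsw : Real.sin w.arg = w.im := by rw [Complex.sin_arg, hw, div_one]
  have hre : (conj z * w).re = Real.cos (w.arg - z.arg) := by
    rw [Real.cos_sub, hcz, hcw, hsz, hsw]; simp; ring
  have hcos : Real.sqrt 3 / 2 < Real.cos (w.arg - z.arg) := by
    rw [← Real.cos_pi_div_six, ← Real.cos_abs (w.arg - z.arg)]
    exact Real.cos_lt_cos_of_nonneg_of_le_pi (abs_nonneg _) (by linarith) hd
  set q := conj z * w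
  have hq : q.re ^ 2 + q.im ^ 2 = 1 := by
    have : ‖q‖ = 1 := by simp [q, hz, hw]
    have h' := Complex.sq_norm q
    rw [this, Complex.normSq_apply] at h'
    nlinarith
  have h3 : Real.sqrt 3 ^ 2 = 3 := Real.sq_sqrt (by norm_num)
  have h3pos : 0 < Real.sqrt 3 := Real.sqrt_pos.2 (by norm_num)
  refine lt_of_pow_lt_pow_left₀ 2 (by norm_num) ?_
  rw [Complex.sq_norm, Complex.normSq_apply]
  simp only [Complex.sub_re, Complex.sub_im, Complex.ofReal_re, Complex.ofReal_im]
  rw [hre] at hq ⊢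
  nlinarith

theorem exists_abelian_normal [Finite G] [FiniteDimensional ℂ U] (hinj : Function.Injective Φ) :
    ∃ A : Subgroup G, A.Normal ∧ (∀ x ∈ A, ∀ y ∈ A, x * y = y * x) ∧
      ∀ H : Subgroup G, (∀ x ∈ H, ∀ y ∈ H, x * y = y * x) →
        (A.subgroupOf H).index ≤ 12 ^ finrank ℂ U := by
  classical
  refine ⟨Subgroup.closure {g | Near Φ g}, ?_, ?_, ?_⟩
  · constructor
    intro a ha x
    induction ha using Subgroup.closure_induction with
    | mem y hy => exact Subgroup.subset_closure (near_conj hiso hy x)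
    | one => simp
    | mul y y' _ _ hy hy' =>
      rw [show x * (y * y') * x⁻¹ = (x * y * x⁻¹) * (x * y' * x⁻¹) by group]
      exact mul_mem hy hy'
    | inv y _ hy =>
      rw [show x * y⁻¹ * x⁻¹ = (x * y * x⁻¹)⁻¹ by group]
      exact inv_mem hy
  · intro x hx y hy
    haveI : Subgroup.closure {g | Near Φ g} ≤ Subgroup.centralizer {g | Near Φ g} :=
      (Subgroup.closure_le _).2 fun a ha =>
        Subgroup.mem_centralizer_iff.2 fun b hb => (commute_of_near hiso hinj hb ha).eq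
    have h2 : Subgroup.closure {g | Near Φ g} ≤
        Subgroup.centralizer (Subgroup.closure {g | Near Φ g} : Set G) := by
      rw [Subgroup.centralizer_closure]; exact this
    exact Subgroup.mem_centralizer_iff.1 (h2 hy) x hx
  · intro H hH
    set A := Subgroup.closure {g | Near Φ g}
    obtain ⟨s₀, hs₀, hspan₀, he₀⟩ := exists_common_eigen_spanning
      (fun x y : H => Subtype.ext (hH x x.2 y y.2)) U (Φ.comp H.subtype)
    set s := s₀.erase 0 with hs
    have hspan : Submodule.span ℂ (s : Set U) = ⊤ := by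
      rw [hs, Finset.coe_erase, Submodule.span_sdiff_singleton_zero, hspan₀]
    have he : ∀ x ∈ s, ∀ h : H, ∃ μ : ℂ, Φ h x = μ • x := fun x hx h =>
      he₀ x (Finset.mem_of_mem_erase hx) h
    have he' : ∀ (x : U) (h : H), ∃ μ : ℂ, x ∈ s → Φ h x = μ • x := fun x h => by
      by_cases hx : x ∈ s
      · exact (he x hx h).imp fun μ hμ _ => hμ
      · exact ⟨0, fun hx' => absurd hx' hx⟩
    choose μ hμ using he'
    have hn : ∀ x ∈ s, ∀ h : H, ‖μ x h‖ = 1 := fun x hx h =>
      norm_eigen hiso (Finset.ne_of_mem_erase hx) (hμ x h hx)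
    let box : (H ⧸ A.subgroupOf H) → (↥s → Fin 12) := fun q x =>
      ⟨(arcIdx (μ x q.out)).toNat, by have := arcIdx_mem (μ x q.out); omega⟩
    have hbox : Function.Injective box := by
      intro q q' hqq
      rw [← q.out_eq, ← q'.out_eq]
      apply QuotientGroup.eq.2
      rw [Subgroup.mem_subgroupOf]
      apply Subgroup.subset_closure
      refine near_of_eigen hiso s hspan (fun x => conj (μ x q.out) * μ x q'.out) ?_
        (Real.sqrt 3 / 2 : ℝ) ?_
      · intro x hx
        have h1 : Φ ((q.out : H) : G) x = μ x q.out • x := hμ x _ hx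
        have h2 : Φ ((q'.out : H) : G) x = μ x q'.out • x := hμ x _ hx
        have h3 : Φ ((q.out : H) : G)⁻¹ x = conj (μ x q.out) • x := by
          have hμ1 : conj (μ x q.out) * μ x q.out = 1 := by
            rw [Complex.conj_mul', hn x hx]; simp
          calc Φ ((q.out : H) : G)⁻¹ x
              = Φ ((q.out : H) : G)⁻¹ ((conj (μ x q.out) * μ x q.out) • x) := by rw [hμ1, one_smul]
            _ = conj (μ x q.out) • Φ ((q.out : H) : G)⁻¹ (Φ ((q.out : H) : G) x) := by
              rw [h1, mul_smul, map_smul, map_smul]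
            _ = conj (μ x q.out) • x := by
              rw [← Module.End.mul_apply, ← map_mul, inv_mul_cancel, map_one, Module.End.one_apply]
        simp only [Subgroup.coe_mul, Subgroup.coe_inv, map_mul, Module.End.mul_apply, h2, map_smul,
          h3, smul_smul]
        rw [mul_comm]
      · intro x hx
        refine arc_close (hn x hx _) (hn x hx _) ?_
        have := congrArg Fin.val (congrFun hqq ⟨x, hx⟩)
        simp only [box] at this
        have a1 := arcIdx_mem (μ x q.out)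
        have a2 := arcIdx_mem (μ x q'.out)
        omega
    calc (A.subgroupOf H).index ≤ Nat.card (↥s → Fin 12) := Nat.card_le_card_of_injective box hbox
      _ = 12 ^ s.card := by simp [Nat.card_eq_fintype_card]
      _ ≤ 12 ^ finrank ℂ U :=
        Nat.pow_le_pow_right (by norm_num) ((Finset.card_erase_le).trans hs₀)

end

section Embed

variable {G : Type u} [Group G] {n : ℕ} (ρ : Representation ℂ G (Fin n → ℂ))

/-- The embedding `v ↦ (g ↦ g • v)` into a Hilbert space. -/
noncomputable def emb [Fintype G] : (Fin n → ℂ) →ₗ[ℂ] EuclideanSpace ℂ (G × Fin n) :=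
  (WithLp.linearEquiv 2 ℂ (G × Fin n → ℂ)).symm.toLinearMap ∘ₗ
    LinearMap.pi (fun p => (LinearMap.proj p.2) ∘ₗ ρ p.1)

theorem emb_apply [Fintype G] (v : Fin n → ℂ) (p : G × Fin n) : emb ρ v p = ρ p.1 v p.2 := rfl

theorem emb_injective [Fintype G] : Function.Injective (emb ρ) := by
  intro v w h
  funext i
  have h1 := congrArg (fun x : EuclideanSpace ℂ (G × Fin n) => x (1, i)) h
  simpa [emb_apply] using h1

theorem norm_emb [Fintype G] (g : G) (v : Fin n → ℂ) : ‖emb ρ (ρ g v)‖ = ‖emb ρ v‖ := by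
  rw [EuclideanSpace.norm_eq, EuclideanSpace.norm_eq]
  congr 1
  refine Fintype.sum_equiv (Equiv.prodCongr (Equiv.mulRight g) (Equiv.refl _)) _ _ fun p => ?_
  simp only [emb_apply, Equiv.prodCongr_apply, Prod.map, Equiv.coe_mulRight, Equiv.refl_apply,
    map_mul, Module.End.mul_apply]

end Embed

theorem bound_of_submodule {G : Type u} [Group G] [Finite G] {n : ℕ} {E : Type v}
    [NormedAddCommGroup E] [InnerProductSpace ℂ E] (S : Submodule ℂ E)
    (ρ : Representation ℂ G (Fin n → ℂ)) (hinj : Function.Injective ρ)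
    (e : (Fin n → ℂ) ≃ₗ[ℂ] S) (hnorm : ∀ g x, ‖(e (ρ g x) : E)‖ = ‖(e x : E)‖) :
    ∃ A : Subgroup G, A.Normal ∧ (∀ x ∈ A, ∀ y ∈ A, x * y = y * x) ∧
      ∀ H : Subgroup G, (∀ x ∈ H, ∀ y ∈ H, x * y = y * x) → (A.subgroupOf H).index ≤ 12 ^ n := by
  haveI : FiniteDimensional ℂ S := Module.Finite.equiv e
  have h1 : ∀ g x, Cfsg.Agent.Char.conjRep e ρ g (e x) = e (ρ g x) := by
    intro g x
    rw [Cfsg.Agent.Char.conjRep_apply, LinearEquiv.symm_apply_apply]
  have hiso : ∀ g v, ‖Cfsg.Agent.Char.conjRep e ρ g v‖ = ‖v‖ := by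
    intro g v
    obtain ⟨x, rfl⟩ := e.surjective v
    rw [h1, Submodule.coe_norm, Submodule.coe_norm, hnorm]
  have hΦ : Function.Injective (Cfsg.Agent.Char.conjRep e ρ) := by
    intro g h hgh
    apply hinj
    refine LinearMap.ext fun x => e.injective ?_
    have h2 := LinearMap.congr_fun hgh (e x)
    rwa [h1, h1] at h2
  obtain ⟨A, hA, hA2, hA3⟩ := exists_abelian_normal hiso hΦ
  refine ⟨A, hA, hA2, fun H hH => (hA3 H hH).trans_eq ?_⟩
  rw [← e.finrank_eq, Module.finrank_fin_fun]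

/-- Blichfeldt: the statement for an arbitrary faithful complex representation. -/
theorem abelian_normal_bound {G : Type u} [Group G] [Finite G] {n : ℕ}
    (ρ : Representation ℂ G (Fin n → ℂ)) (hinj : Function.Injective ρ) :
    ∃ A : Subgroup G, A.Normal ∧ (∀ x ∈ A, ∀ y ∈ A, x * y = y * x) ∧
      ∀ H : Subgroup G, (∀ x ∈ H, ∀ y ∈ H, x * y = y * x) → (A.subgroupOf H).index ≤ 12 ^ n :=
  letI : Fintype G := Fintype.ofFinite G
  bound_of_submodule (LinearMap.range (emb ρ)) ρ hinj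
    (LinearEquiv.ofInjective (emb ρ) (emb_injective ρ)) (fun g x => norm_emb ρ g x)

end Cfsg.Agent.Jordan
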